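import Mathlib
import Cfsg.Agent.Lib.Helper74.OFM.Defs

/-!
# OFM (S5978), package [MINUSTS]

The minus form `quadFormMinus n F a b` has a totally singular subspace of dimension `n`
(the vectors supported on the coordinates `inl (inl _)`).
-/

set_option autoImplicit false

namespace Cfsg.Agent.Lib.Helper89.OFM

open Cfsg.Agent.Lib.Helper74.OFM

universe u

/-- The embedding of `F ^ n` onto the coordinates `inl (inl _)`. -/
def tsMap (F : Type u) [Field F] (n : ℕ) : (Fin n → F) →ₗ[F] (MI n → F) where
  toFun c := fun k => Sum.elim (Sum.elim c (fun _ => 0)) (fun _ => 0) k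
  map_add' c c' := by
    funext k
    rcases k with (i | i) | i <;> simp
  map_smul' s c := by
    funext k
    rcases k with (i | i) | i <;> simp

theorem tsMap_injective (F : Type u) [Field F] (n : ℕ) : Function.Injective (tsMap F n) := by
  intro c c' h
  funext i
  have := congrFun h (Sum.inl (Sum.inl i))
  simpa [tsMap] using this

/-- [MINUSTS] -/
theorem pkgMinusTS : PkgMinusTS.{u} := by
  intro F _ n a b
  refine ⟨LinearMap.range (tsMap F n), ?_, ?_⟩
  · rintro u ⟨c, rfl⟩
    simp [Cfsg.quadFormMinus, tsMap]
  · rw [LinearMap.finrank_range_of_inj (tsMap_injective F n), Module.finrank_fin_fun]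

end Cfsg.Agent.Lib.Helper89.OFM
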