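import Mathlib
import Cfsg.Agent.Lib.Helper74.OFM.Defs

/-!
# OFM (S5978), package [NOIDX]

If every `r`-subgroup of the isometry group centralizes a structure `α'` ([SYL4]) and all
structures are conjugate to `α`, then a conjugate of a Sylow `r`-subgroup of `Ω` lies in
`N(K) ⊓ Ω`, so `r` does not divide the index.
-/

set_option autoImplicit false

namespace Cfsg.Agent.Lib.Helper89.OFM

open Cfsg.Agent.Lib.Helper74.OFM Cfsg.Agent.Lib.Helper23.OHyp

universe u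

/-- `Ω(Q)` is normalized by the isometry group. -/
theorem omegaGL_conj {F : Type u} [Field F] {ι : Type} [Fintype ι] [DecidableEq ι]
    (Q : (ι → F) → F) {g x : GL ι F} (hg : g ∈ Cfsg.isometryGroup F Q)
    (hx : x ∈ Cfsg.Geo.omegaGL Q) : g⁻¹ * x * g ∈ Cfsg.Geo.omegaGL Q := by
  obtain ⟨y, hy, rfl⟩ := Subgroup.mem_map.1 hx
  refine Subgroup.mem_map.2
    ⟨(⟨g, hg⟩ : Cfsg.isometryGroup F Q)⁻¹ * y * ⟨g, hg⟩, ?_, ?_⟩
  · have hn : (Cfsg.Omega F Q).Normal := inferInstance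
    have := hn.conj_mem y hy (⟨g, hg⟩ : Cfsg.isometryGroup F Q)⁻¹
    simpa using this
  · simp

/-- [NOIDX] -/
theorem pkgNoIdx : PkgNoIdx.{u} := by
  intro hNorm hSyl F _ _ hodd ι _ _ Q hQ hev K a α ha hα hK hconj r hr hr2 hrq h4 hdvd
  classical
  have : Fact r.Prime := ⟨hr⟩
  obtain ⟨P₀⟩ : Nonempty (Sylow r (Cfsg.Geo.omegaGL Q)) := inferInstance
  have hPΩ : (P₀ : Subgroup (Cfsg.Geo.omegaGL Q)).map (Cfsg.Geo.omegaGL Q).subtype ≤
      Cfsg.Geo.omegaGL Q := Subgroup.map_subtype_le _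
  have hΩO : Cfsg.Geo.omegaGL Q ≤ Cfsg.isometryGroup F Q := Subgroup.map_subtype_le _
  have hPp : IsPGroup r ((P₀ : Subgroup (Cfsg.Geo.omegaGL Q)).map
      (Cfsg.Geo.omegaGL Q).subtype) := P₀.isPGroup'.map _
  obtain ⟨α', hα', hcomm⟩ := hSyl hodd Q hQ hev a ha r hr hr2 hrq h4 _ (hPΩ.trans hΩO) hPp
  obtain ⟨g, hgO, hg⟩ := hconj α' hα'
  have hgi1 : ((g⁻¹ : GL ι F) : Matrix ι ι F) * (g : Matrix ι ι F) = 1 := by
    rw [← Units.val_mul, inv_mul_cancel, Units.val_one]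
  have hgi2 : (g : Matrix ι ι F) * ((g⁻¹ : GL ι F) : Matrix ι ι F) = 1 := by
    rw [← Units.val_mul, mul_inv_cancel, Units.val_one]
  have hgi : ((g⁻¹ : GL ι F) : Matrix ι ι F) * α' = α * ((g⁻¹ : GL ι F) : Matrix ι ι F) := by
    calc ((g⁻¹ : GL ι F) : Matrix ι ι F) * α'
        = ((g⁻¹ : GL ι F) : Matrix ι ι F) * (α' * (g : Matrix ι ι F)) *
            ((g⁻¹ : GL ι F) : Matrix ι ι F) := by
          rw [Matrix.mul_assoc, Matrix.mul_assoc, hgi2, Matrix.mul_one]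
      _ = α * ((g⁻¹ : GL ι F) : Matrix ι ι F) := by
          rw [hg, ← Matrix.mul_assoc, hgi1, Matrix.one_mul]
  have hmem : ∀ x ∈ (P₀ : Subgroup (Cfsg.Geo.omegaGL Q)).map (Cfsg.Geo.omegaGL Q).subtype,
      g⁻¹ * x * g ∈ Cfsg.Geo.subalgebraNormalizer K ⊓ Cfsg.Geo.omegaGL Q := by
    intro x hx
    refine Subgroup.mem_inf.2 ⟨?_, omegaGL_conj Q hgO (hPΩ hx)⟩
    rw [hNorm hodd K a α ha hα.1 hK]
    left
    have hxc := hcomm x hx
    rw [Units.val_mul, Units.val_mul]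
    calc ((g⁻¹ : GL ι F) : Matrix ι ι F) * (x : Matrix ι ι F) * (g : Matrix ι ι F) * α
        = ((g⁻¹ : GL ι F) : Matrix ι ι F) * ((x : Matrix ι ι F) * α') * (g : Matrix ι ι F) := by
          simp only [Matrix.mul_assoc, hg]
      _ = ((g⁻¹ : GL ι F) : Matrix ι ι F) * α' * ((x : Matrix ι ι F) * (g : Matrix ι ι F)) := by
          rw [hxc]
          simp only [Matrix.mul_assoc]
      _ = α * (((g⁻¹ : GL ι F) : Matrix ι ι F) * (x : Matrix ι ι F) * (g : Matrix ι ι F)) := by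
          rw [hgi]
          simp only [Matrix.mul_assoc]
  have hle : ((P₀ : Subgroup (Cfsg.Geo.omegaGL Q)).map (Cfsg.Geo.omegaGL Q).subtype).map
      (MulAut.conj g⁻¹).toMonoidHom ≤
      Cfsg.Geo.subalgebraNormalizer K ⊓ Cfsg.Geo.omegaGL Q := by
    rintro _ ⟨x, hx, rfl⟩
    have := hmem x hx
    simpa [MulAut.conj_apply] using this
  have hcard : Nat.card ↥(((P₀ : Subgroup (Cfsg.Geo.omegaGL Q)).map
      (Cfsg.Geo.omegaGL Q).subtype).map (MulAut.conj g⁻¹).toMonoidHom) =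
      r ^ (Nat.card (Cfsg.Geo.omegaGL Q)).factorization r := by
    rw [Subgroup.card_map_of_injective (MulEquiv.injective _),
      Subgroup.card_map_of_injective (Subgroup.subtype_injective _), P₀.card_eq_multiplicity]
  have h1 := Subgroup.card_dvd_of_le hle
  rw [hcard] at h1
  have h2 : Nat.card ↥(Cfsg.Geo.subalgebraNormalizer K ⊓ Cfsg.Geo.omegaGL Q) *
      (Cfsg.Geo.subalgebraNormalizer K).relIndex (Cfsg.Geo.omegaGL Q) =
      Nat.card (Cfsg.Geo.omegaGL Q) := by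
    have := Subgroup.relIndex_mul_relIndex (⊥ : Subgroup (GL ι F))
      (Cfsg.Geo.subalgebraNormalizer K ⊓ Cfsg.Geo.omegaGL Q) (Cfsg.Geo.omegaGL Q)
      bot_le inf_le_right
    rwa [Subgroup.relIndex_bot_left, Subgroup.relIndex_bot_left,
      Subgroup.inf_relIndex_right] at this
  have h3 : r ^ ((Nat.card (Cfsg.Geo.omegaGL Q)).factorization r + 1) ∣
      Nat.card (Cfsg.Geo.omegaGL Q) := by
    have h4' := Nat.mul_dvd_mul h1 hdvd
    rwa [h2, ← pow_succ] at h4'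
  exact Nat.pow_succ_factorization_not_dvd Nat.card_pos.ne' hr h3

end Cfsg.Agent.Lib.Helper89.OFM
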